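import Mathlib
import Cfsg.Agent.Leech.OctadCentralizer
import Cfsg.Agent.Leech.Co2
import Cfsg.Agent.Classical.Orth.Index
import Cfsg.Agent.Classical.Symp.Card
import Cfsg.Agent.LargeExtraspecial.Simple
import Cfsg.Agent.S0270

set_option autoImplicit false
set_option linter.style.haveILetI false

/-! The centraliser in `Co2` of an involution: an extraspecial group of order `2 ^ 9` extended by
the symplectic group in dimension 6 over two elements. -/

namespace CfsgLib.Leech

open Cfsg
open scoped Pointwise Matrix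

/-! ### A nonsingular point and its stabiliser -/

/-- The vector of squared length 32 on the octad. -/
def axisHalf : GolayPt → ℤ := onOctad ![1, -1, -1, -1, -1, -1, -1, 1]

theorem axisHalf_ok : ((red axisHalf = 0 ∨ red axisHalf = baseOctad) ∧
    (∑ i, axisHalf i) % 4 = 0) ∧ sqNorm (fun i => 2 * axisHalf i) = 32 ∧
    coFun (fun i => 2 * axisHalf i) = Pi.single (.inl 0) 1 + Pi.single (.inr 0) 1 := by
  decide +kernel

/-- The same vector as an element of the sublattice. -/
def shortOct : octLattice :=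
  ⟨⟨fun i => 2 * axisHalf i, twice_mem axisHalf_ok.1.1 axisHalf_ok.1.2⟩, fun i hi => by
    show 2 * axisHalf i = 0
    simp [axisHalf, onOctad_out _ hi]⟩

theorem shortOct_norm : sqNorm (((shortOct : octLattice) : leechLattice) : GolayPt → ℤ) = 32 :=
  axisHalf_ok.2.1

/-- The nonsingular point. -/
def nsPt : OctSpace := Pi.single (.inl 0) 1 + Pi.single (.inr 0) 1

theorem coHom_shortOct : coHom shortOct = nsPt := axisHalf_ok.2.2

/-- Dropping the pair of coordinates of the nonsingular point. -/
def lift6 : Fin 3 ⊕ Fin 3 → Fin 4 ⊕ Fin 4 := Sum.map Fin.succ Fin.succ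

/-- The matrix of an isometry. -/
abbrev isoMat (g : Cfsg.isometryGroup (ZMod 2) octForm) : Matrix (Fin 4 ⊕ Fin 4) (Fin 4 ⊕ Fin 4) (ZMod 2) :=
  ((g : GL (Fin 4 ⊕ Fin 4) (ZMod 2)) : Matrix _ _ _)

theorem isoMat_mul (g h : Cfsg.isometryGroup (ZMod 2) octForm) :
    isoMat (g * h) = isoMat g * isoMat h := rfl

theorem isoMat_form (g : Cfsg.isometryGroup (ZMod 2) octForm) (v : OctSpace) :
    octForm (isoMat g *ᵥ v) = octForm v := g.2 v 0

/-- The stabiliser of the nonsingular point in `Omega`. -/
def nsStab : Subgroup (Cfsg.Omega (ZMod 2) octForm) where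
  carrier := {g | isoMat g.1 *ᵥ nsPt = nsPt}
  one_mem' := Matrix.one_mulVec _
  mul_mem' {g h} hg hh := by
    show isoMat (g.1 * h.1) *ᵥ nsPt = nsPt
    rw [isoMat_mul, ← Matrix.mulVec_mulVec, hh, hg]
  inv_mem' {g} hg := by
    show isoMat g.1⁻¹ *ᵥ nsPt = nsPt
    conv_lhs => rw [← hg]
    rw [Matrix.mulVec_mulVec, ← isoMat_mul, inv_mul_cancel]
    exact Matrix.one_mulVec _

/-- The symplectic form in dimension 6. -/
def bil6 (x y : Fin 3 ⊕ Fin 3 → ZMod 2) : ZMod 2 :=
  ∑ i, (x (.inl i) * y (.inr i) + x (.inr i) * y (.inl i))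

/-- The polar of the form on eight coordinates. -/
def bil8 (x y : OctSpace) : ZMod 2 := octForm (x + y) - octForm x - octForm y

theorem J_bil6 : ∀ x y : Fin 3 ⊕ Fin 3 → ZMod 2,
    dotProduct x (Matrix.J (Fin 3) (ZMod 2) *ᵥ y) = bil6 x y := by
  decide +kernel

theorem bil8_eq (x y : OctSpace) (hx : x (.inl 0) = x (.inr 0)) (hy : y (.inl 0) = y (.inr 0)) :
    bil8 x y = bil6 (x ∘ lift6) (y ∘ lift6) := by
  simp only [bil8, octForm, Cfsg.quadFormPlus, bil6, lift6, Fin.sum_univ_succ, Fin.sum_univ_zero,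
    Pi.add_apply, Function.comp_apply, Sum.map_inl, Sum.map_inr, add_zero, hx, hy]
  linear_combination (x (.inr 0) * y (.inr 0)) * (CharTwo.two_eq_zero (R := ZMod 2))

theorem single_lift : (∀ j : Fin 3 ⊕ Fin 3, bil8 (Pi.single (lift6 j) 1) nsPt = 0) ∧
    (∀ j : Fin 3 ⊕ Fin 3, (Pi.single (lift6 j) 1 : OctSpace) (.inl 0) = 0 ∧
      (Pi.single (lift6 j) 1 : OctSpace) (.inr 0) = 0) ∧
    (∀ x : OctSpace, bil8 x nsPt = 0 ↔ x (.inl 0) = x (.inr 0)) ∧ octForm nsPt = 1 := by
  decide +kernel

theorem bil8_iso (g : Cfsg.isometryGroup (ZMod 2) octForm) (x y : OctSpace) :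
    bil8 (isoMat g *ᵥ x) (isoMat g *ᵥ y) = bil8 x y := by
  simp only [bil8, ← Matrix.mulVec_add, isoMat_form]

theorem col_perp {g : Cfsg.Omega (ZMod 2) octForm} (hg : g ∈ nsStab) (j : Fin 3 ⊕ Fin 3) :
    isoMat g.1 (.inl 0) (lift6 j) = isoMat g.1 (.inr 0) (lift6 j) := by
  have h := (single_lift.2.2.1 (isoMat g.1 *ᵥ Pi.single (lift6 j) 1)).1 (by
    conv_lhs => rw [← show isoMat g.1 *ᵥ nsPt = nsPt from hg]
    rw [bil8_iso, single_lift.1])
  simpa using h

/-- The block of an element of the stabiliser. -/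
def blockMat (g : nsStab) : Matrix (Fin 3 ⊕ Fin 3) (Fin 3 ⊕ Fin 3) (ZMod 2) :=
  (isoMat g.1.1).submatrix lift6 lift6

theorem blockMat_mem (g : nsStab) : blockMat g ∈ Matrix.symplecticGroup (Fin 3) (ZMod 2) := by
  rw [SymplecticGroup.mem_iff']
  ext j l
  have h : ((blockMat g)ᵀ * Matrix.J (Fin 3) (ZMod 2) * blockMat g) j l =
      dotProduct (fun i => blockMat g i j) (Matrix.J (Fin 3) (ZMod 2) *ᵥ fun i => blockMat g i l) := by
    rw [Matrix.mul_assoc, Matrix.mul_apply]
    rfl
  have hs : ∀ (a b : Fin 3 ⊕ Fin 3), Matrix.J (Fin 3) (ZMod 2) a b =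
      bil6 (Pi.single a 1 : Fin 3 ⊕ Fin 3 → ZMod 2) (Pi.single b 1) := fun a b => by
    rw [← J_bil6]; simp
  have hb : ∀ (a b : Fin 3 ⊕ Fin 3),
      bil8 (Pi.single (lift6 a) 1 : OctSpace) (Pi.single (lift6 b) 1) =
        bil6 (Pi.single a 1 : Fin 3 ⊕ Fin 3 → ZMod 2) (Pi.single b 1) := by
    decide +kernel
  have hc : ∀ m : Fin 3 ⊕ Fin 3, (fun i => blockMat g i m) =
      (isoMat g.1.1 *ᵥ Pi.single (lift6 m) 1) ∘ lift6 := fun m => by
    funext i
    simp [blockMat]
  rw [h, J_bil6, hc, hc, ← bil8_eq, bil8_iso, hb, hs]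
  · simpa using col_perp g.2 j
  · simpa using col_perp g.2 l

/-- The map to the symplectic group. -/
def toSp : nsStab →* Matrix.symplecticGroup (Fin 3) (ZMod 2) where
  toFun g := ⟨blockMat g, blockMat_mem g⟩
  map_one' := Subtype.ext (Matrix.submatrix_one _ (by decide))
  map_mul' g h := Subtype.ext <| Matrix.ext fun i l => by
    show (isoMat (g.1.1 * h.1.1)) (lift6 i) (lift6 l) = (blockMat g * blockMat h) i l
    have hga := congrFun (show isoMat g.1.1 *ᵥ nsPt = nsPt from g.2) (lift6 i)
    have hz : ∀ i : Fin 3 ⊕ Fin 3, nsPt (lift6 i) = 0 := by decide +kernel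
    have hcol := col_perp h.2 l
    rw [hz, nsPt, Matrix.mulVec_add, Pi.add_apply, Matrix.mulVec_single_one,
      Matrix.mulVec_single_one] at hga
    simp only [Matrix.transpose_apply, Matrix.col_apply] at hga
    rw [isoMat_mul]
    simp only [blockMat, Matrix.mul_apply, Matrix.submatrix_apply, Fintype.sum_sum_type,
      Fin.sum_univ_succ (n := 3), lift6, Sum.map_inl, Sum.map_inr] at hga hcol ⊢
    rw [hcol]
    linear_combination (isoMat h.1.1 (Sum.inr 0) (Sum.map Fin.succ Fin.succ l)) * hga

theorem perp_basis : ∀ x : OctSpace, x (.inl 0) = x (.inr 0) →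
    x = x (.inl 0) • nsPt + ∑ j, x (lift6 j) • Pi.single (lift6 j) (1 : ZMod 2) := by
  decide +kernel

theorem fixer_vals : ∀ u : OctSpace, (∀ j, bil8 u (Pi.single (lift6 j) 1) = 0) → bil8 u nsPt = 1 →
    octForm u = 0 → u = Pi.single (.inl 0) 1 ∨ u = Pi.single (.inr 0) 1 := by
  decide +kernel

theorem first_facts : (∀ j, bil8 (Pi.single (.inl 0) 1) (Pi.single (lift6 j) 1) = 0) ∧
    bil8 (Pi.single (.inl 0) 1) nsPt = 1 ∧ octForm (Pi.single (.inl 0) 1) = 0 ∧
    (∀ j, octForm (Pi.single (lift6 j) 1) = 0) ∧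
    ∀ j, ∀ c : ZMod 2, octForm (Pi.single (lift6 j) 1 + c • nsPt) = c := by
  decide +kernel

theorem toSp_injective : Function.Injective toSp := by
  refine (injective_iff_map_eq_one toSp).2 fun g hg => ?_
  set M := isoMat g.1.1
  have hga : M *ᵥ nsPt = nsPt := g.2
  have hblock : blockMat g = 1 := congrArg Subtype.val hg
  have hM : ∀ j, M *ᵥ Pi.single (lift6 j) 1 = Pi.single (lift6 j) 1 := by
    intro j
    set x := M *ᵥ Pi.single (lift6 j) 1 with hx
    have hp : x (.inl 0) = x (.inr 0) := by simpa [hx, M] using col_perp g.2 j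
    have e : x = Pi.single (lift6 j) 1 + x (.inl 0) • nsPt := by
      conv_lhs => rw [perp_basis x hp]
      rw [add_comm, Finset.sum_eq_single j]
      · congr 1
        have : x (lift6 j) = 1 := by
          simpa [hx, M, blockMat] using congrFun (congrFun hblock j) j
        rw [this, one_smul]
      · intro k _ hk
        have : x (lift6 k) = 0 := by
          simpa [hx, M, blockMat, Matrix.one_apply, hk] using congrFun (congrFun hblock k) j
        rw [this, zero_smul]
      · simp
    have hQ : octForm x = 0 := by rw [hx, isoMat_form, first_facts.2.2.2.1]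
    rw [e, first_facts.2.2.2.2] at hQ
    rw [e, hQ, zero_smul, add_zero]
  have hu := fixer_vals (M *ᵥ Pi.single (.inl 0) 1)
    (fun j => by
      conv_lhs => rw [← hM j]
      rw [bil8_iso, first_facts.1])
    (by conv_lhs => rw [← hga]
        rw [bil8_iso, first_facts.2.1])
    (by rw [isoMat_form, first_facts.2.2.1])
  have hr : M *ᵥ Pi.single (.inr 0) 1 = nsPt + M *ᵥ Pi.single (.inl 0) 1 := by
    have : (Pi.single (.inr 0) 1 : OctSpace) = nsPt + Pi.single (.inl 0) 1 := by decide +kernel
    rw [this, Matrix.mulVec_add, hga]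
  rcases hu with hu | hu
  · refine Subtype.ext (Subtype.ext (Subtype.ext (Units.ext (Matrix.ext_of_mulVec_single fun i => ?_))))
    show M *ᵥ Pi.single i 1 = (1 : Matrix _ _ (ZMod 2)) *ᵥ Pi.single i 1
    rw [Matrix.one_mulVec]
    have hcases : ∀ i : Fin 4 ⊕ Fin 4, i = .inl 0 ∨ i = .inr 0 ∨ ∃ j, lift6 j = i := by decide
    rcases hcases i with rfl | rfl | ⟨j, rfl⟩
    · exact hu
    · rw [hr, hu]; decide +kernel
    · exact hM j
  · exfalso
    have hQ8 := CfsgLib.Classical.Orth.isNondegQF_quadFormPlus (F := ZMod 2) 4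
    have ha : Cfsg.quadFormPlus 4 (ZMod 2) nsPt ≠ 0 := by decide +kernel
    have hexc : ¬ (Nat.card (ZMod 2) = 2 ∧ Fintype.card (Fin 4 ⊕ Fin 4) = 4) := by simp
    have e : (g.1.1 : Cfsg.isometryGroup (ZMod 2) octForm) = CfsgLib.Classical.Orth.refl hQ8 ha := by
      refine Subtype.ext (Units.ext (Matrix.ext_of_mulVec_single fun i => ?_))
      show M *ᵥ Pi.single i 1 = Cfsg.reflectionMatrix (Cfsg.quadFormPlus 4 (ZMod 2)) nsPt *ᵥ Pi.single i 1
      have hcases : ∀ i : Fin 4 ⊕ Fin 4, i = .inl 0 ∨ i = .inr 0 ∨ ∃ j, lift6 j = i := by decide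
      rcases hcases i with rfl | rfl | ⟨j, rfl⟩
      · rw [hu]; decide +kernel
      · rw [hr, hu]; decide +kernel
      · rw [hM j]; revert j; decide +kernel
    have hmem : CfsgLib.Classical.Orth.refl hQ8 ha ∈ (CfsgLib.Classical.Orth.classHom hQ8 hexc).ker := by
      rw [CfsgLib.Classical.Orth.ker_classHom, ← e]
      exact g.1.2
    have h1 := congrArg Prod.fst (MonoidHom.mem_ker.1 hmem)
    rw [CfsgLib.Classical.Orth.classHom_refl_fst] at h1
    exact absurd h1 (by decide)

theorem card_ns_points : (Finset.univ.filter fun u : OctSpace => octForm u = 1).card = 120 := by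
  decide +kernel

theorem toSp_bijective : Function.Bijective toSp := by
  classical
  have hS : Nat.card (Matrix.symplecticGroup (Fin 3) (ZMod 2)) = 1451520 := by
    rw [CfsgLib.Classical.Symp.card_symplecticGroup, ZMod.card]
    decide +kernel
  have hO : Nat.card (Cfsg.Omega (ZMod 2) octForm) = 174182400 := by
    have h1 := Subgroup.card_mul_index (Cfsg.Omega (ZMod 2) octForm)
    have hI : Nat.card (Cfsg.isometryGroup (ZMod 2) octForm) = 348364800 := by
      rw [octForm, CfsgLib.Classical.Orth.card_isometryGroup_plus (F := ZMod 2) 3, ZMod.card]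
      decide +kernel
    rw [CfsgLib.Classical.Orth.index_omega_even
      (CfsgLib.Classical.Orth.isNondegQF_quadFormPlus (F := ZMod 2) 4) CharTwo.two_eq_zero
      (by simp) (by simp), hI] at h1
    omega
  have hidx : nsStab.index ≤ 120 := by
    rw [← card_ns_points, ← Fintype.card_coe, ← Nat.card_eq_fintype_card, Subgroup.index]
    let f : Cfsg.Omega (ZMod 2) octForm ⧸ nsStab →
        {u // u ∈ Finset.univ.filter fun u : OctSpace => octForm u = 1} :=
      fun q => Quotient.liftOn' q (fun g => ⟨isoMat g.1 *ᵥ nsPt, by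
        rw [Finset.mem_filter, isoMat_form]
        exact ⟨Finset.mem_univ _, single_lift.2.2.2⟩⟩) fun a b hab => Subtype.ext (by
          have h := (QuotientGroup.leftRel_apply.1 hab : a⁻¹ * b ∈ nsStab)
          show isoMat a.1 *ᵥ nsPt = isoMat b.1 *ᵥ nsPt
          conv_lhs => rw [← show isoMat (a⁻¹ * b).1 *ᵥ nsPt = nsPt from h]
          rw [Matrix.mulVec_mulVec, ← isoMat_mul, ← Subgroup.coe_mul, mul_inv_cancel_left])
    refine Nat.card_le_card_of_injective f ?_
    intro a b
    refine Quotient.inductionOn₂' a b fun a b hab => QuotientGroup.eq.2 ?_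
    have h : isoMat a.1 *ᵥ nsPt = isoMat b.1 *ᵥ nsPt := congrArg Subtype.val hab
    show isoMat (a⁻¹ * b).1 *ᵥ nsPt = nsPt
    rw [Subgroup.coe_mul, isoMat_mul, ← Matrix.mulVec_mulVec, ← h, Matrix.mulVec_mulVec,
      ← isoMat_mul, ← Subgroup.coe_mul, inv_mul_cancel]
    exact Matrix.one_mulVec _
  have h := Subgroup.card_mul_index nsStab
  rw [hO] at h
  have hge : 1451520 ≤ Nat.card nsStab := by nlinarith
  have hle := Nat.card_le_card_of_injective toSp toSp_injective
  exact (Nat.bijective_iff_injective_and_card _).2 ⟨toSp_injective, le_antisymm hle (by omega)⟩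

/-! ### The centraliser -/

/-- The involution fixing the nonsingular point. -/
noncomputable def fixInv : Co0 := epsOct * negOne

theorem oct_flip {g : Co0} (v : octLattice) (hg : g = epsOct) :
    g • (v : leechLattice) = -(v : leechLattice) := by
  subst hg
  refine Subtype.ext (funext fun i => ?_)
  show ((signs baseOctad baseOctad_mem • (v : leechLattice) : leechLattice) : GolayPt → ℤ) i =
    -((v : leechLattice) : GolayPt → ℤ) i
  rw [signs_apply]
  rcases eq_or_ne (baseOctad i) 0 with hi | hi
  · rw [if_pos hi, v.2 i hi, neg_zero]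
  · rw [if_neg hi]

theorem fixInv_fix (v : octLattice) : fixInv • (v : leechLattice) = (v : leechLattice) := by
  rw [fixInv, mul_smul, negOne_smul, co0_map_neg, oct_flip v rfl, neg_neg]

theorem octFix_apply {g : Co0} (hg : g ∈ octFix) (v : octLattice) :
    g • (v : leechLattice) = (v : leechLattice) := by
  obtain ⟨x, rfl⟩ := fixElt_surjective hg
  refine Subtype.ext (funext fun i => ?_)
  rw [fixElt, monomial_apply]
  rcases eq_or_ne (baseOctad i) 0 with hi | hi
  · have hs : baseOctad ((transM x.2).1.symm i) = 0 := by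
      by_contra h
      have h1 := (trans_facts x.2).2 _ h
      have h1' : (transM x.2).1 ((transM x.2).1.symm i) = (transM x.2).1.symm i := h1
      rw [Equiv.apply_symm_apply] at h1'
      rw [← h1'] at h
      exact h hi
    rw [v.2 i hi, v.2 _ hs]
    simp
  · rw [show (transM x.2).1.symm i = i from (Equiv.symm_apply_eq _).2 ((trans_facts x.2).2 i hi).symm,
      if_pos (outCombo_facts.1 x.1 i hi)]

/-- The stabiliser of the short vector in the centraliser of the sign change. -/
noncomputable def shortCent : Subgroup octCent :=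
  (MulAction.stabilizer Co0 ((shortOct : octLattice) : leechLattice)).subgroupOf octCent

theorem octRep_shortCent (g : shortCent) :
    octMat g.1 *ᵥ nsPt = nsPt := by
  rw [← coHom_shortOct, octMat_mulVec]
  refine congrArg coHom (Subtype.ext ?_)
  exact g.2

/-- The action on the nonsingular point's stabiliser. -/
noncomputable def shortRep : shortCent →* nsStab :=
  ((octRep.comp shortCent.subtype).codRestrict (Cfsg.Omega (ZMod 2) octForm) fun g => by
    rw [← range_octRep]; exact ⟨g.1, rfl⟩).codRestrict nsStab fun g => octRep_shortCent g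

theorem shortRep_surjective : Function.Surjective shortRep := by
  rintro ⟨⟨h, hO⟩, hh⟩
  obtain ⟨g, rfl⟩ : h ∈ octRep.range := by rw [range_octRep]; exact hO
  have hv : Cg ((g : Co0) • ((shortOct : octLattice) : leechLattice)) shortOct := by
    refine (co_eq_iff (x := octAct g shortOct) (y := shortOct)).1 ?_
    rw [← octMat_mulVec, coHom_shortOct]
    exact hh
  rcases cg_short hv (by rw [co0_sqNorm, shortOct_norm]; norm_num)
    (by rw [shortOct_norm]; norm_num) with e | e | e
  · exact ⟨⟨g, e⟩, Subtype.ext (Subtype.ext rfl)⟩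
  · refine ⟨⟨⟨negOne, negOne_octCent⟩ * g, ?_⟩, Subtype.ext (Subtype.ext ?_)⟩
    · show (negOne * (g : Co0)) • ((shortOct : octLattice) : leechLattice) = shortOct
      rw [mul_smul, e, negOne_smul, neg_neg]
    · show octRep (⟨negOne, negOne_octCent⟩ * g) = octRep g
      rw [map_mul, negOne_ker, one_mul]
  · exact absurd (shortOct_norm.symm.trans e.2) (by norm_num)

theorem shortRep_ker (g : shortCent) : g ∈ shortRep.ker ↔ (g.1 : Co0) ∈ octFix := by
  rw [MonoidHom.mem_ker]
  constructor
  · intro h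
    rcases ker_octRep_cases (g := g.1) (congrArg (fun z : nsStab => z.1.1) h) with e | e
    · exact e
    · exfalso
      have h1 := octFix_apply e shortOct
      rw [mul_smul, show (g.1 : Co0) • ((shortOct : octLattice) : leechLattice) = shortOct from g.2,
        negOne_smul] at h1
      have h2 := shortOct_norm
      have h3 : sqNorm (((shortOct : octLattice) : leechLattice) : GolayPt → ℤ) = 0 :=
        Finset.sum_eq_zero fun i _ => by
          have := congrFun (congrArg Subtype.val h1) i
          have h4 : -((shortOct : leechLattice) : GolayPt → ℤ) i = (shortOct : leechLattice).1 i := this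
          rw [show ((shortOct : leechLattice) : GolayPt → ℤ) i = 0 by omega]
          norm_num
      omega
  · intro h
    refine Subtype.ext (Subtype.ext ?_)
    exact octFix_ker h

theorem fixInv_cent : Subgroup.centralizer ({fixInv} : Set Co0) = octCent := by
  ext g
  have hn := Subgroup.mem_center_iff.1 negOne_central g
  rw [Subgroup.mem_centralizer_singleton_iff, Subgroup.mem_centralizer_singleton_iff, fixInv,
    ← mul_assoc, mul_assoc epsOct, ← hn, ← mul_assoc, mul_left_inj]

theorem co2_centralizer : ∃ t : Spor.Co2, orderOf t = 2 ∧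
    Cfsg.IsExtraspecial 2 (Cfsg.pCore 2 (Subgroup.centralizer ({t} : Set Spor.Co2))) ∧
    Nat.card (Cfsg.pCore 2 (Subgroup.centralizer ({t} : Set Spor.Co2))) = 2 ^ 9 ∧
    Nonempty (Subgroup.centralizer ({t} : Set Spor.Co2) ⧸
      Cfsg.pCore 2 (Subgroup.centralizer ({t} : Set Spor.Co2)) ≃*
        Matrix.symplecticGroup (Fin 3) (ZMod 2)) := by
  classical
  haveI : Finite Co0 := finite_co0
  haveI : Finite Spor.Co2 := Finite.of_injective co2Incl co2Incl_injective
  haveI : Fact (Nat.Prime 2) := ⟨Nat.prime_two⟩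
  obtain ⟨g, hg⟩ := exists_smul_norm32 _ Spor.leechU shortOct_norm sqNorm_leechU
  obtain ⟨t, ht⟩ := co2_of_fix (g := g * fixInv * g⁻¹) (by
    rw [← hg, mul_smul, inv_smul_smul, mul_smul, fixInv_fix])
  refine ⟨t, ?_, ?_⟩
  · rw [← orderOf_injective co2Incl co2Incl_injective, ht, ← MulAut.conj_apply, MulEquiv.orderOf_eq]
    refine orderOf_eq_prime ?_ fun h => ?_
    · have h1 : epsOct * negOne = negOne * epsOct := Subgroup.mem_center_iff.1 negOne_central epsOct
      rw [fixInv, pow_two, mul_assoc, ← mul_assoc negOne, ← h1, mul_assoc, negOne_mul_self, mul_one,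
        epsOct, signs_mul, signs_congr _ (Submodule.zero_mem _)
        (show baseOctad + baseOctad = 0 from funext fun i => CharTwo.add_self_eq_zero _), signs_zero]
    · have h1 : epsOct = negOne := by
        rw [← mul_one epsOct, ← negOne_mul_self, ← mul_assoc, ← fixInv, h, one_mul]
      have h2 := congrFun (congrArg Subtype.val (congrArg (· • axisVec outPt) h1)) outPt
      simp [epsOct, negOne, signs_apply, axisVec, single, formHalf_ok.2.2.2.1] at h2
  · set C := Subgroup.centralizer ({t} : Set Spor.Co2)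
    have hmem : ∀ x : C, g⁻¹ * co2Incl x.1 * g ∈ octCent := fun x => by
      rw [← fixInv_cent, Subgroup.mem_centralizer_singleton_iff]
      have h1 := congrArg co2Incl (Subgroup.mem_centralizer_singleton_iff.1 x.2)
      rw [map_mul, map_mul, ht] at h1
      calc g⁻¹ * co2Incl x.1 * g * fixInv = g⁻¹ * (co2Incl x.1 * (g * fixInv * g⁻¹)) * g := by group
        _ = g⁻¹ * ((g * fixInv * g⁻¹) * co2Incl x.1) * g := by rw [h1]
        _ = fixInv * (g⁻¹ * co2Incl x.1 * g) := by group
    let back : C →* shortCent :=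
      { toFun := fun x => ⟨⟨g⁻¹ * co2Incl x.1 * g, hmem x⟩, by
          show (g⁻¹ * co2Incl x.1 * g) • ((shortOct : octLattice) : leechLattice) = shortOct
          rw [mul_smul, mul_smul, hg, co2Incl_fix, ← hg, inv_smul_smul]⟩
        map_one' := Subtype.ext (Subtype.ext (by simp))
        map_mul' := fun x y => Subtype.ext (Subtype.ext (by
          show g⁻¹ * co2Incl (x.1 * y.1) * g = g⁻¹ * co2Incl x.1 * g * (g⁻¹ * co2Incl y.1 * g)
          rw [map_mul]; group)) }
    have hb : Function.Bijective back := by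
      refine ⟨fun x y h => ?_, fun y => ?_⟩
      · have h1 : g⁻¹ * co2Incl x.1 * g = g⁻¹ * co2Incl y.1 * g :=
          congrArg (fun z : shortCent => (z.1 : Co0)) h
        exact Subtype.ext (co2Incl_injective (mul_left_cancel (mul_right_cancel h1)))
      · obtain ⟨d, hd⟩ := co2_of_fix (g := g * (y.1 : Co0) * g⁻¹) (by
          rw [← hg, mul_smul, inv_smul_smul, mul_smul,
            show (y.1 : Co0) • ((shortOct : octLattice) : leechLattice) = shortOct from y.2])
        refine ⟨⟨d, Subgroup.mem_centralizer_singleton_iff.2 (co2Incl_injective ?_)⟩,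
          Subtype.ext (Subtype.ext ?_)⟩
        · have h1 : (y.1 : Co0) ∈ Subgroup.centralizer ({fixInv} : Set Co0) := by
            rw [fixInv_cent]; exact y.1.2
          have h2 := Subgroup.mem_centralizer_singleton_iff.1 h1
          rw [map_mul, map_mul, hd, ht]
          calc g * (y.1 : Co0) * g⁻¹ * (g * fixInv * g⁻¹) = g * ((y.1 : Co0) * fixInv) * g⁻¹ := by group
            _ = g * (fixInv * (y.1 : Co0)) * g⁻¹ := by rw [h2]
            _ = g * fixInv * g⁻¹ * (g * (y.1 : Co0) * g⁻¹) := by group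
        · show g⁻¹ * co2Incl d * g = (y.1 : Co0)
          rw [hd]; group
    let f : C →* Matrix.symplecticGroup (Fin 3) (ZMod 2) := toSp.comp (shortRep.comp back)
    have hf : Function.Surjective f :=
      toSp_bijective.2.comp (shortRep_surjective.comp hb.2)
    let e0 : f.ker →* octFix :=
      { toFun := fun x => ⟨((back x.1).1 : Co0), (shortRep_ker _).1 (MonoidHom.mem_ker.2
          (toSp_injective ((MonoidHom.mem_ker.1 x.2).trans (map_one toSp).symm)))⟩
        map_one' := Subtype.ext (by simp)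
        map_mul' := fun x y => Subtype.ext (by simp) }
    have he0 : Function.Bijective e0 := by
      refine ⟨fun x y h => Subtype.ext (hb.1 (Subtype.ext (Subtype.ext ?_))), fun y => ?_⟩
      · exact congrArg (fun z : octFix => (z : Co0)) h
      · obtain ⟨x, hx⟩ := hb.2 ⟨⟨y.1, octFix_le y.2⟩, octFix_apply y.2 shortOct⟩
        refine ⟨⟨x, ?_⟩, Subtype.ext ?_⟩
        · rw [MonoidHom.mem_ker]
          show toSp (shortRep (back x)) = 1
          rw [MonoidHom.mem_ker.1 ((shortRep_ker (back x)).2 (by rw [hx]; exact y.2)), map_one]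
        · show ((back x).1 : Co0) = y.1
          rw [hx]
    have e := MulEquiv.ofBijective e0 he0
    have hx : IsExtraspecial 2 f.ker :=
      CfsgLib.LargeExtraspecial.isExtraspecial_of_mulEquiv e.symm octFix_isExtraspecial
    have hcard : Nat.card f.ker = 2 ^ 9 := by
      rw [Nat.card_congr e.toEquiv, card_octFix]; norm_num
    have hcore : Cfsg.pCore 2 C = f.ker := by
      refine le_antisymm ?_ (CfsgLib.LocalP.le_pCore inferInstance hx.1.1)
      haveI hs : IsSimpleGroup (Matrix.symplecticGroup (Fin 3) (ZMod 2)) := by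
        haveI : IsSimpleGroup (Cfsg.PSp 3 (ZMod 2)) :=
          Cfsg.Agent.S0270.result 3 (by norm_num) (fun h => absurd h (by norm_num))
        have hz : Subgroup.center (Matrix.symplecticGroup (Fin 3) (ZMod 2)) = ⊥ :=
          Subgroup.card_eq_one.1 (CfsgLib.Classical.Symp.card_center_of_two_eq_zero CharTwo.two_eq_zero)
        exact ((QuotientGroup.quotientMulEquivOfEq hz).trans
          QuotientGroup.quotientBot).symm.isSimpleGroup
      rcases ((Cfsg.pCore_normal 2 C).map f hf).eq_bot_or_eq_top with h | h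
      · intro x hxm
        exact Subgroup.mem_bot.1 (h ▸ Subgroup.mem_map_of_mem f hxm)
      · exfalso
        have h2 := (CfsgLib.LocalP.isPGroup_pCore (G := C) (p := 2)).map f
        rw [h] at h2
        obtain ⟨j, hj⟩ := (h2.of_equiv Subgroup.topEquiv).exists_card_eq
        rw [CfsgLib.Classical.Symp.card_symplecticGroup, ZMod.card] at hj
        have h3 : 3 ∣ 2 ^ j := hj ▸ (by decide +kernel)
        exact absurd (Nat.Prime.dvd_of_dvd_pow (by norm_num : Nat.Prime 3) h3) (by norm_num)
    exact ⟨hcore.symm ▸ hx, hcore.symm ▸ hcard, ⟨(QuotientGroup.quotientMulEquivOfEq hcore).trans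
      (QuotientGroup.quotientKerEquivOfSurjective f hf)⟩⟩

end CfsgLib.Leech
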