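import Cfsg.Agent.Leech.CoMult

/-! `Co0` is the universal cover of `Co1`. -/

set_option autoImplicit false

namespace CfsgLib.Leech.CoMult

open Cfsg CfsgLib.Golay CfsgLib.Mathieu CfsgLib.Mathieu.Code CfsgLib.Leech.MonoRep
open scoped Pointwise commutatorElement

theorem rep_negOne : Rep negOne (16777215, idC) := by
  intro i hi
  have h : ap idC i = i := MultTwo.ap_idC hi
  refine ⟨by rw [h]; exact hi, ?_⟩
  rw [h, negOne_smul, show (16777215 : ℕ).testBit i = true from by revert i; decide +kernel]
  simp [sgB]

theorem negOne_mem_commutator : negOne ∈ commutator Co0 := by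
  let a : ℕ × ℕ × ℕ := (11869896, idC, idC)
  let b : ℕ × ℕ × ℕ :=
    (0, 565978520097499995128873158919626039, 16132380389569737468045789083713909)
  let b' : ℕ × ℕ × ℕ :=
    (0, 16132380389569737468045789083713909, 565978520097499995128873158919626039)
  have ha : OkMono a := by decide +kernel
  have hb : OkMono b := by decide +kernel
  have hb' : OkMono b' := by decide +kernel
  have iaa : monoOf a * monoOf a = 1 :=
    rep_ext (rep_mul (rep_monoOf ha) (rep_monoOf ha)) rep_one (by decide +kernel)
  have ibb : monoOf b * monoOf b' = 1 :=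
    rep_ext (rep_mul (rep_monoOf hb) (rep_monoOf hb')) rep_one (by decide +kernel)
  have h : monoOf a * monoOf b * monoOf a * monoOf b' = negOne :=
    rep_ext (rep_mul (rep_mul (rep_mul (rep_monoOf ha) (rep_monoOf hb)) (rep_monoOf ha))
      (rep_monoOf hb')) rep_negOne (by decide +kernel)
  have h' : negOne = ⁅monoOf a, monoOf b⁆ := by
    rw [commutatorElement_def, inv_eq_of_mul_eq_one_right iaa, inv_eq_of_mul_eq_one_right ibb, h]
  rw [h']
  exact Subgroup.commutator_mem_commutator (Subgroup.mem_top _) (Subgroup.mem_top _)

theorem co1_multiplier : Cfsg.HasCyclicSchurMultiplier Spor.Co1 2 := by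
  have : Finite Co0 := finite_co0
  have : Finite Spor.Co1 := Finite.of_surjective _ (QuotientGroup.mk'_surjective _)
  have hker : (toCo1).ker = Subgroup.center Co0 := QuotientGroup.ker_mk' _
  have hσ : Cfsg.IsStemExtension toCo1 := by
    refine ⟨QuotientGroup.mk'_surjective _, hker.le, fun z hz => ?_⟩
    rw [hker] at hz
    rcases center_co0_cases hz with e | e <;> rw [e]
    · exact one_mem _
    · exact negOne_mem_commutator
  exact SchurMult.hasSchurMultiplier_of_trivial_cover hσ co0_multiplier
    (mulEquivOfPrimeCardEq (p := 2) (by rw [hker, center_co0_card]) (by simp))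

end CfsgLib.Leech.CoMult
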