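import Mathlib
import Cfsg.Agent.Leech.Generators

set_option autoImplicit false

/-! Indices: the lattice in the integer vectors, twice the lattice in the lattice, and the part
divisible by 4. -/

namespace CfsgLib.Leech

open Cfsg

/-- The integer vectors reducing to code words. -/
def codeVecs : AddSubgroup (GolayPt → ℤ) := golayCode.toAddSubgroup.comap red

theorem red_surjective : Function.Surjective red := fun w => ⟨lift₂ w, red_lift₂ w⟩

theorem codeVecs_index : codeVecs.index = 2 ^ 12 := by
  rw [codeVecs, AddSubgroup.index_comap_of_surjective _ red_surjective]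
  have h := AddSubgroup.card_mul_index golayCode.toAddSubgroup
  rw [show Nat.card golayCode.toAddSubgroup = 2 ^ 12 from card_code, Nat.card_fun] at h
  simp only [Nat.card_eq_fintype_card, Fintype.card_option, ZMod.card] at h
  omega

/-- The sum of coordinates as a homomorphism. -/
def sumHom : (GolayPt → ℤ) →+ ℤ :=
  AddMonoidHom.mk' (fun y => ∑ i, y i) (fun y z => by simp [Finset.sum_add_distrib])

/-- The vectors with even coordinate sum. -/
def evenSum : AddSubgroup (GolayPt → ℤ) := (AddSubgroup.zmultiples (2 : ℤ)).comap sumHom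

theorem mem_evenSum {y : GolayPt → ℤ} : y ∈ evenSum ↔ (2 : ℤ) ∣ ∑ i, y i :=
  Int.mem_zmultiples_iff

theorem sumHom_surjective : Function.Surjective sumHom :=
  fun k => ⟨single none k, sum_single none k⟩

theorem evenSum_index : evenSum.index = 2 := by
  rw [evenSum, AddSubgroup.index_comap_of_surjective _ sumHom_surjective, Int.index_zmultiples]
  rfl

/-- The `a` with `2a` in the lattice. -/
def halfLattice : AddSubgroup (GolayPt → ℤ) := codeVecs ⊓ (AddSubgroup.zmultiples (4 : ℤ)).comap sumHom

theorem mem_halfLattice {a : GolayPt → ℤ} :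
    a ∈ halfLattice ↔ red a ∈ golayCode ∧ (4 : ℤ) ∣ ∑ i, a i := by
  rw [halfLattice, AddSubgroup.mem_inf]
  exact and_congr Iff.rfl Int.mem_zmultiples_iff

theorem codeVecs_sum {a : GolayPt → ℤ} (ha : a ∈ codeVecs) : (2 : ℤ) ∣ ∑ i, a i := by
  have h : red a ∈ golayCode := ha
  have h1 := code_orth one_mem_code h
  rw [dot₂_apply] at h1
  rw [← intCast_two_eq_zero, Int.cast_sum, ← h1]
  simp

theorem halfLattice_index : halfLattice.index = 2 ^ 13 := by
  let f : codeVecs →+ ZMod 2 := AddMonoidHom.mk'
    (fun a => (((∑ i, (a : GolayPt → ℤ) i) / 2 : ℤ) : ZMod 2)) (fun a b => by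
      obtain ⟨p, hp⟩ := codeVecs_sum a.2
      obtain ⟨q, hq⟩ := codeVecs_sum b.2
      simp only [AddSubgroup.coe_add, Pi.add_apply, Finset.sum_add_distrib, hp, hq, ← mul_add,
        Int.mul_ediv_cancel_left _ (by norm_num : (2 : ℤ) ≠ 0), Int.cast_add])
  have hker : f.ker = halfLattice.addSubgroupOf codeVecs := by
    ext a
    rw [AddSubgroup.mem_addSubgroupOf, mem_halfLattice, AddMonoidHom.mem_ker]
    show (((∑ i, (a : GolayPt → ℤ) i) / 2 : ℤ) : ZMod 2) = 0 ↔ _
    obtain ⟨p, hp⟩ := codeVecs_sum a.2
    rw [intCast_two_eq_zero, hp, Int.mul_ediv_cancel_left _ (by norm_num)]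
    exact ⟨fun h => ⟨a.2, by omega⟩, fun h => by obtain ⟨-, h2⟩ := h; omega⟩
  have hsurj : Function.Surjective f := by
    have hmem : ∀ k : ℤ, single none (2 * k) ∈ codeVecs := fun k => by
      show red (single none (2 * k)) ∈ golayCode
      rw [show red (single none (2 * k)) = 0 by
        rw [red_eq_zero_iff]; intro i; simp only [single]; split <;> omega]
      exact zero_mem _
    intro x
    refine ⟨⟨_, hmem x.val⟩, ?_⟩
    show (((∑ i, single none (2 * (x.val : ℤ)) i) / 2 : ℤ) : ZMod 2) = x
    rw [sum_single, Int.mul_ediv_cancel_left _ (by norm_num)]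
    simp
  have hrel : halfLattice.relIndex codeVecs = 2 := by
    rw [AddSubgroup.relIndex, ← hker, AddSubgroup.index_ker,
      AddMonoidHom.range_eq_top.2 hsurj, AddSubgroup.card_top, Nat.card_zmod]
  rw [← AddSubgroup.relIndex_mul_index (H := halfLattice) (K := codeVecs) inf_le_left, hrel,
    codeVecs_index]
  norm_num

theorem halfLattice_le_evenSum : halfLattice ≤ evenSum := fun a ha => by
  rw [mem_halfLattice] at ha
  rw [mem_evenSum]
  omega

theorem halfLattice_relIndex_evenSum : halfLattice.relIndex evenSum = 2 ^ 12 := by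
  have h := AddSubgroup.relIndex_mul_index halfLattice_le_evenSum
  rw [halfLattice_index, evenSum_index] at h
  omega

end CfsgLib.Leech
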