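import Mathlib
import Cfsg.Agent.Leech.Index

set_option autoImplicit false

/-! The totally singular half of the lattice modulo 2: vectors with all coordinates divisible
by 4. -/

namespace CfsgLib.Leech

open Cfsg

/-- `y ↦ 4y`, from vectors with even sum into the lattice. -/
def fourPart : evenSum →+ leechLattice where
  toFun y := ⟨(4 : ℤ) • (y : GolayPt → ℤ), four_mul_mem_iff.2 (mem_evenSum.1 y.2)⟩
  map_zero' := Subtype.ext (by simp)
  map_add' y z := Subtype.ext (by simp [smul_add])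

theorem fourPart_coe (y : evenSum) :
    (fourPart y : GolayPt → ℤ) = (4 : ℤ) • (y : GolayPt → ℤ) := rfl

theorem fourPart_twice_iff (y : evenSum) :
    (∃ w : leechLattice, fourPart y = w + w) ↔ (y : GolayPt → ℤ) ∈ halfLattice := by
  constructor
  · rintro ⟨w, hw⟩
    have h : (w : GolayPt → ℤ) = (2 : ℤ) • (y : GolayPt → ℤ) := by
      funext i
      have := congrFun (congrArg Subtype.val hw) i
      simp [fourPart_coe] at this ⊢
      omega
    have h' : (w : GolayPt → ℤ) = fun i => 2 * (y : GolayPt → ℤ) i := h.trans (by funext i; simp)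
    exact mem_halfLattice.2 (two_mul_mem_iff.1 (h' ▸ w.2))
  · intro hy
    refine ⟨⟨fun i => 2 * (y : GolayPt → ℤ) i, two_mul_mem_iff.2 (mem_halfLattice.1 hy)⟩, ?_⟩
    apply Subtype.ext
    funext i
    simp [fourPart_coe]
    ring

theorem fourPart_singular (y : evenSum) :
    (32 : ℤ) ∣ sqNorm (fourPart y : GolayPt → ℤ) := by
  rw [fourPart_coe, sqNorm_smul]
  obtain ⟨k, hk⟩ := mem_evenSum.1 y.2
  have h2 : ∀ a : ℤ, (2 : ℤ) ∣ a ^ 2 - a := fun a => by
    rw [show a ^ 2 - a = (a - 1) * (a - 1 + 1) by ring]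
    exact (Int.even_mul_succ_self _).two_dvd
  have h3 : (2 : ℤ) ∣ sqNorm (y : GolayPt → ℤ) := by
    have : (2 : ℤ) ∣ ∑ i, ((y : GolayPt → ℤ) i ^ 2 - (y : GolayPt → ℤ) i) :=
      Finset.dvd_sum fun i _ => h2 _
    rw [Finset.sum_sub_distrib, hk] at this
    have := dvd_add this (dvd_mul_right (2 : ℤ) k)
    simpa [sqNorm] using this
  obtain ⟨m, hm⟩ := h3
  exact ⟨m, by rw [hm]; ring⟩

end CfsgLib.Leech
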