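import Cfsg.Agent.Leech.McLSimple
import Cfsg.Agent.LeechTriples.HS
import Cfsg.Agent.LeechTriples.Counts
import Cfsg.Prelude.Def_Sporadic
import Cfsg.Agent.Eq.Def_Sporadic

/-! The joint stabiliser of two vectors of squared length 48 with product `-32`. -/

set_option autoImplicit false

namespace CfsgLib.Leech

open Cfsg
open scoped Pointwise

/-- The joint stabiliser of a pair with norms 48, 32 and product 16. -/
theorem card_hs {v x : leechLattice} (hv : nrm v = 48) (hx : nrm x = 32) (hd : ip v x = 16) :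
    Nat.card (pairStab v x) = 44352000 := by
  have h := card_pairStab_mul (fun y => y ∈ nbrs v 16) (v := v) (w := x) fun y => by
    constructor
    · intro hy
      obtain ⟨h1, h2⟩ := mem_nbrs.1 hy
      obtain ⟨g, hg, hgv⟩ := LeechTriples.exists_hsPair x v y v hx hv (by rw [ip_comm, hd]) h1 hv
        (by rw [ip_comm, h2])
      exact ⟨g, hgv, hg⟩
    · rintro ⟨g, hg, rfl⟩
      refine mem_nbrs.2 ⟨by rw [nrm_smul, hx], ?_⟩
      have := ip_smul g v x
      rw [hg, hd] at this
      exact this
  change _ * (↑(nbrs v 16) : Set leechLattice).ncard = _ at h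
  rw [Set.ncard_coe_finset, LeechTriples.card_nbrs48 hv, card_stab_48 hv] at h
  omega

theorem pairStab_add (v w : leechLattice) : pairStab v (v + w) = pairStab v w := by
  ext g
  simp only [pairStab, Subgroup.mem_inf, MulAction.mem_stabilizer_iff, co0_map_add]
  constructor
  · rintro ⟨h1, h2⟩
    rw [h1] at h2
    exact ⟨h1, add_left_cancel h2⟩
  · rintro ⟨h1, h2⟩
    exact ⟨h1, by rw [h1, h2]⟩

theorem hs_isHS {v w : leechLattice} (hv : nrm v = 48) (hw : nrm w = 48) (hd : ip v w = -32) :
    IsHS (pairStab v w) := by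
  obtain ⟨hn, hdx, -⟩ := LeechTriples.hs_sum hv hw hd
  rw [← pairStab_add]
  have hd' : ip v (v + w) = 16 := by rw [ip_comm]; exact hdx
  obtain ⟨hf, hu, hfu⟩ := hs_base
  obtain ⟨g, hg, hgv⟩ := LeechTriples.exists_hsPair (v + w) v _ _ hn hv hdx hu hf
    (by rw [ip_comm, hfu])
  refine ⟨?_, card_hs hv hn hd'⟩
  have := hs_base_isSimpleGroup (card_hs hf hu hfu)
  exact (pairStabEquiv hgv hg).isSimpleGroup

end CfsgLib.Leech
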