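import Mathlib
import Cfsg.Agent.Leech.FourPart

set_option autoImplicit false

/-! The index of the lattice in the integer vectors, and of its totally singular half. -/

namespace CfsgLib.Leech

open Cfsg

/-- `x ↦ 4x` on integer vectors. -/
def quadMap : (GolayPt → ℤ) →+ (GolayPt → ℤ) := DistribSMul.toAddMonoidHom _ (4 : ℤ)

/-- Lattice vectors with all coordinates divisible by 4. -/
def fourLattice : AddSubgroup (GolayPt → ℤ) := evenSum.map quadMap

theorem fourLattice_le : fourLattice ≤ leechLattice := by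
  rintro _ ⟨y, hy, rfl⟩
  exact four_mul_mem_iff.2 (mem_evenSum.1 hy)

theorem quadMap_injective : Function.Injective quadMap := fun y z h => by
  funext i
  have := congrFun h i
  simp [quadMap] at this
  omega

theorem quadMap_index : quadMap.range.index = 4 ^ 24 := by
  let r : (GolayPt → ℤ) →+ (GolayPt → ZMod 4) := (Int.castAddHom (ZMod 4)).compLeft GolayPt
  have hk : quadMap.range = r.ker := by
    ext x
    rw [AddMonoidHom.mem_ker, AddMonoidHom.mem_range]
    constructor
    · rintro ⟨y, rfl⟩
      funext i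
      show ((((4 : ℤ) • y) i : ℤ) : ZMod 4) = 0
      rw [ZMod.intCast_zmod_eq_zero_iff_dvd]
      exact ⟨y i, by simp⟩
    · intro h
      choose y hy using fun i => (ZMod.intCast_zmod_eq_zero_iff_dvd (x i) 4).1 (congrFun h i)
      refine ⟨y, funext fun i => ?_⟩
      simp [quadMap, hy i]
  have hs : Function.Surjective r := fun w =>
    ⟨fun i => (w i).val, funext fun i => by simp [r]⟩
  rw [hk, AddSubgroup.index_ker, AddMonoidHom.range_eq_top.2 hs, AddSubgroup.card_top,
    Nat.card_fun]
  simp [Nat.card_eq_fintype_card]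

theorem fourLattice_index : fourLattice.index = 2 ^ 49 := by
  rw [fourLattice, AddSubgroup.index_map, AddMonoidHom.ker_eq_bot_iff _ |>.2 quadMap_injective,
    sup_bot_eq, evenSum_index, quadMap_index]
  norm_num

/-- The parity of a lattice vector. -/
def parityHom : leechLattice →+ ZMod 2 :=
  AddMonoidHom.mk' (fun x => ((x : GolayPt → ℤ) none : ZMod 2)) (fun x y => by simp)

/-- Lattice vectors with even coordinates. -/
def evenLattice : AddSubgroup (GolayPt → ℤ) := parityHom.ker.map leechLattice.subtype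

theorem evenLattice_half {x : GolayPt → ℤ} (hx : x ∈ evenLattice) :
    ∃ a : GolayPt → ℤ, (∀ i, x i = 2 * a i) ∧ red a ∈ golayCode ∧ (4 : ℤ) ∣ ∑ i, a i := by
  obtain ⟨y, hy, rfl⟩ := hx
  rcases leech_cases y.2 with h | ⟨a, ha, -, -⟩
  · exact h
  · exfalso
    have h1 := (intCast_two_eq_zero _).1 hy
    have h2 := ha none
    omega

theorem evenLattice_le : evenLattice ≤ leechLattice := by
  rintro _ ⟨y, -, rfl⟩
  exact y.2

theorem fourLattice_le_even : fourLattice ≤ evenLattice := by
  rintro _ ⟨y, hy, rfl⟩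
  refine ⟨⟨_, fourLattice_le ⟨y, hy, rfl⟩⟩, (intCast_two_eq_zero _).2 ?_, rfl⟩
  simp [quadMap]
  omega

theorem evenLattice_relIndex : evenLattice.relIndex leechLattice = 2 := by
  have h : evenLattice.addSubgroupOf leechLattice = parityHom.ker :=
    AddSubgroup.comap_map_eq_self_of_injective leechLattice.subtype_injective _
  have hs : Function.Surjective parityHom := by
    intro w
    rcases (show w = 0 ∨ w = 1 by decide +revert) with rfl | rfl
    · exact ⟨0, map_zero _⟩
    · exact ⟨⟨oddVec none, oddVec_mem none⟩, by decide +kernel⟩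
  rw [AddSubgroup.relIndex, h, AddSubgroup.index_ker, AddMonoidHom.range_eq_top.2 hs,
    AddSubgroup.card_top, Nat.card_zmod]

theorem fourLattice_relIndex_even : fourLattice.relIndex evenLattice = 2 ^ 12 := by
  let f : evenLattice →+ golayCode :=
    AddMonoidHom.mk' (fun x => ⟨red (fun i => (x : GolayPt → ℤ) i / 2), by
      obtain ⟨a, ha, h1, -⟩ := evenLattice_half x.2
      rwa [show (fun i => (x : GolayPt → ℤ) i / 2) = a from funext fun i => by
        rw [ha i]; omega]⟩) (fun x y => by
      apply Subtype.ext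
      funext i
      obtain ⟨a, ha, -, -⟩ := evenLattice_half x.2
      obtain ⟨b, hb, -, -⟩ := evenLattice_half y.2
      simp [ha i, hb i, ← mul_add, Int.cast_add])
  have hk : fourLattice.addSubgroupOf evenLattice = f.ker := by
    ext x
    rw [AddSubgroup.mem_addSubgroupOf, AddMonoidHom.mem_ker]
    obtain ⟨a, ha, -, h4⟩ := evenLattice_half x.2
    have hfa : f x = 0 ↔ red a = 0 := by
      rw [← Submodule.coe_eq_zero]
      show red (fun i => (x : GolayPt → ℤ) i / 2) = 0 ↔ _
      rw [show (fun i => (x : GolayPt → ℤ) i / 2) = a from funext fun i => by rw [ha i]; omega]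
    rw [hfa, red_eq_zero_iff]
    constructor
    · rintro ⟨y, -, hy⟩ i
      have := congrFun hy i
      simp [quadMap] at this
      have := ha i
      omega
    · intro h
      choose y hy using h
      refine ⟨y, mem_evenSum.2 ?_, funext fun i => ?_⟩
      · simp only [hy, ← Finset.mul_sum] at h4
        omega
      · simp [quadMap, ha i, hy i]
        ring
  have hs : Function.Surjective f := by
    rintro ⟨w, hw⟩
    refine ⟨⟨_, ⟨⟨_, two_lift₂_mem hw⟩, (intCast_two_eq_zero _).2 ⟨_, rfl⟩, rfl⟩⟩, Subtype.ext ?_⟩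
    show red (fun i => 2 * lift₂ w i / 2) = w
    simpa using red_lift₂ w
  rw [AddSubgroup.relIndex, hk, AddSubgroup.index_ker, AddMonoidHom.range_eq_top.2 hs,
    AddSubgroup.card_top]
  exact card_code

theorem fourLattice_relIndex : fourLattice.relIndex leechLattice = 2 ^ 13 := by
  rw [← AddSubgroup.relIndex_mul_relIndex fourLattice evenLattice leechLattice
    fourLattice_le_even evenLattice_le, fourLattice_relIndex_even, evenLattice_relIndex]
  norm_num

theorem leech_index : leechLattice.index = 2 ^ 36 := by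
  have h := AddSubgroup.relIndex_mul_index fourLattice_le
  rw [fourLattice_relIndex, fourLattice_index] at h
  omega

/-- Twice the lattice. -/
def twiceLattice : AddSubgroup (GolayPt → ℤ) :=
  leechLattice.map (DistribSMul.toAddMonoidHom _ (2 : ℤ))

theorem twiceLattice_le : twiceLattice ≤ leechLattice := by
  rintro _ ⟨y, hy, rfl⟩
  exact leechLattice.zsmul_mem hy 2

theorem halfSingular_index :
    (fourLattice ⊔ twiceLattice).relIndex leechLattice = 2 ^ 12 := by
  let d : (GolayPt → ℤ) →+ (GolayPt → ℤ) := DistribSMul.toAddMonoidHom _ (2 : ℤ)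
  have hd : ∀ x, d x = (2 : ℤ) • x := fun _ => rfl
  have h2 : fourLattice.relIndex (fourLattice ⊔ twiceLattice) = 2 := by
    rw [sup_comm, AddSubgroup.relIndex_sup_right, twiceLattice, ← AddSubgroup.relIndex_comap,
      ← evenLattice_relIndex]
    have : ∀ x ∈ leechLattice, x ∈ fourLattice.comap d ↔ x ∈ evenLattice := by
      intro x hx
      rw [AddSubgroup.mem_comap]
      constructor
      · rintro ⟨y, -, hy⟩
        refine ⟨⟨x, hx⟩, (intCast_two_eq_zero _).2 ?_, rfl⟩
        have := congrFun hy none
        simp [quadMap, hd] at this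
        show (2 : ℤ) ∣ x none
        omega
      · intro h
        obtain ⟨a, ha, -, h4⟩ := evenLattice_half h
        refine ⟨a, mem_evenSum.2 (by omega), funext fun i => ?_⟩
        simp [quadMap, hd, ha i]
        ring
    rw [AddSubgroup.relIndex, AddSubgroup.relIndex]
    congr 1
    ext x
    exact this x x.2
  have h := AddSubgroup.relIndex_mul_relIndex fourLattice (fourLattice ⊔ twiceLattice) leechLattice
    le_sup_left (sup_le fourLattice_le twiceLattice_le)
  rw [h2, fourLattice_relIndex] at h
  omega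

theorem halfSingular_norm {x : GolayPt → ℤ} (hx : x ∈ fourLattice ⊔ twiceLattice) :
    (32 : ℤ) ∣ sqNorm x := by
  obtain ⟨_, ⟨y, hy, rfl⟩, _, ⟨w, hw, rfl⟩, rfl⟩ := AddSubgroup.mem_sup.1 hx
  show (32 : ℤ) ∣ sqNorm ((4 : ℤ) • y + (2 : ℤ) • w)
  have h1 : (32 : ℤ) ∣ sqNorm ((4 : ℤ) • y) := fourPart_singular ⟨y, hy⟩
  have h2 := eight_dvd_dotInt (four_mul_mem_iff.2 (mem_evenSum.1 hy)) hw
  have h3 := sixteen_dvd_sqNorm hw
  rw [sqNorm_add, dotInt_smul_right, sqNorm_smul 2 w]
  refine dvd_add (dvd_add h1 ?_) ?_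
  · obtain ⟨k, hk⟩ := h2
    refine ⟨k, ?_⟩
    change dotInt ((4 : ℤ) • y) w = 8 * k at hk
    rw [hk]; ring
  · obtain ⟨k, hk⟩ := h3
    exact ⟨2 * k, by rw [hk]; ring⟩

end CfsgLib.Leech
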