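import Mathlib
import Cfsg.Agent.Leech.FrameGroup
import Cfsg.Agent.Mathieu.M24
import Cfsg.Agent.Eq.Def_SporadicCombinatorics
import Cfsg.Prelude.Def_SporadicCombinatorics

set_option autoImplicit false

/-! The stabiliser of the standard cross. -/

namespace CfsgLib.Leech

open Cfsg

theorem mem_stdCross_iff (v : leechLattice) :
    (v : GolayPt → ℤ) ∈ stdCross ↔ ∃ j, v = axisVec j ∨ v = -axisVec j := by
  have he : ∀ (j : GolayPt) (s : ℤ), Pi.single j s = single j s := fun j s => by
    funext k; simp [Pi.single_apply, single]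
  have hneg : ∀ j : GolayPt, single j (-8) = -single j 8 := fun j => by
    funext k; simp only [single, Pi.neg_apply]; split <;> simp
  constructor
  · rintro ⟨j, s, rfl | rfl, h⟩ <;> refine ⟨j, ?_⟩
    · exact Or.inl (Subtype.ext (h.trans (he j 8)))
    · exact Or.inr (Subtype.ext (h.trans ((he j (-8)).trans (hneg j))))
  · rintro ⟨j, rfl | rfl⟩
    · exact ⟨j, 8, Or.inl rfl, (he j 8).symm⟩
    · exact ⟨j, -8, Or.inr rfl, ((he j (-8)).trans (hneg j)).symm⟩

theorem stdCross_stab_iff (g : Co0) :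
    (∀ v : leechLattice, (v : GolayPt → ℤ) ∈ stdCross →
      ((g • v : leechLattice) : GolayPt → ℤ) ∈ stdCross) ↔ g ∈ Set.range monomial := by
  rw [← frame_iff]
  constructor
  · intro h
    obtain ⟨j, hj⟩ := (mem_stdCross_iff _).1 (h _ ((mem_stdCross_iff _).2 ⟨none, Or.inl rfl⟩))
    rcases hj with e | e <;> rw [e]
    · exact cg_axis j
    · exact (cg_neg _).trans (cg_axis j)
  · intro h v hv
    obtain ⟨x, rfl⟩ := (frame_iff g).1 h
    obtain ⟨j, rfl | rfl⟩ := (mem_stdCross_iff v).1 hv <;> refine (mem_stdCross_iff _).2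
      ⟨x.2.1 j, ?_⟩
    · rw [monomial_axis]; split <;> simp
    · rw [co0_map_neg, monomial_axis]; split <;> simp

theorem monomial_isMonomialMap (x : golayCode × M24) : ∃ f ∈ golayMonomialMaps,
    ∀ v : leechLattice, ((monomial x • v : leechLattice) : GolayPt → ℤ) = f (v : GolayPt → ℤ) := by
  refine ⟨signedPerm x.2.1 (support₂ x.1.1), ⟨x.2.1, x.2.2, _, ⟨x.1.1, x.1.2, rfl⟩, rfl⟩,
    fun v => funext fun i => ?_⟩
  rw [monomial_apply, signedPerm]
  by_cases h : x.1.1 i = 0 <;> simp [h, mem_support₂_iff]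

theorem stdCross_stab_card :
    Nat.card {g : Co0 // ∀ v : leechLattice, (v : GolayPt → ℤ) ∈ stdCross →
      ((g • v : leechLattice) : GolayPt → ℤ) ∈ stdCross} = 4096 * 244823040 := by
  rw [Nat.card_congr (Equiv.subtypeEquivRight stdCross_stab_iff),
    ← Nat.card_congr (Equiv.ofInjective monomial monomial_injective), Nat.card_prod, card_code,
    CfsgLib.Mathieu.card_M24]
  norm_num

end CfsgLib.Leech
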